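import Cfsg.Agent.Lib.Helper27.FusionSolvable
import Cfsg.Agent.Lib.Helper26.Invariant

/-!
Solvability of a fusion system versus a normal subsystem and the factor system.
-/

set_option autoImplicit false

namespace Cfsg.Agent.Lib.Helper27

open Cfsg Cfsg.FusionSystem
open Cfsg.Agent.Lib.Helper26 (IsMap img autFun FacData FacMap toFun₂ mem_preimageAlong mem_imageAlong)
open scoped commutatorElement

variable {Ω : Type*} [Group Ω] {S : Subgroup Ω} {Ω' : Type*} [Group Ω'] {S' : Subgroup Ω'}

theorem autFun_map_mul {T : Subgroup Ω} (α : MulAut T) {x y : Ω} (hx : x ∈ T) (hy : y ∈ T) :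
    autFun α (x * y) = autFun α x * autFun α y := by
  rw [Helper26.autFun_of_mem α hx, Helper26.autFun_of_mem α hy,
    Helper26.autFun_of_mem α (T.mul_mem hx hy), ← Subgroup.coe_mul, ← map_mul]
  rfl

theorem autFun_map_inv {T : Subgroup Ω} (α : MulAut T) {x : Ω} (hx : x ∈ T) :
    autFun α x⁻¹ = (autFun α x)⁻¹ := by
  rw [Helper26.autFun_of_mem α hx, Helper26.autFun_of_mem α (T.inv_mem hx), ← Subgroup.coe_inv,
    ← map_inv]
  rfl

theorem autFun_map_one {T : Subgroup Ω} (α : MulAut T) : autFun α 1 = 1 := by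
  rw [Helper26.autFun_of_mem α T.one_mem]
  have : (⟨1, T.one_mem⟩ : T) = 1 := rfl
  rw [this, map_one]
  rfl

/-- the intersection of the `Aut_F(T)`-translates of `U` -/
def starSub (F : FusionSystem S) (T U : Subgroup Ω) : Subgroup Ω where
  carrier := {x | x ∈ T ∧ ∀ α ∈ F.autGroup T, autFun α x ∈ U}
  one_mem' := ⟨T.one_mem, fun α _ => by rw [autFun_map_one]; exact U.one_mem⟩
  mul_mem' := by
    rintro a b ⟨ha, ha'⟩ ⟨hb, hb'⟩
    exact ⟨T.mul_mem ha hb, fun α hα => by
      rw [autFun_map_mul α ha hb]; exact U.mul_mem (ha' α hα) (hb' α hα)⟩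
  inv_mem' := by
    rintro a ⟨ha, ha'⟩
    exact ⟨T.inv_mem ha, fun α hα => by rw [autFun_map_inv α ha]; exact U.inv_mem (ha' α hα)⟩

theorem mem_starSub {F : FusionSystem S} {T U : Subgroup Ω} {x : Ω} :
    x ∈ starSub F T U ↔ x ∈ T ∧ ∀ α ∈ F.autGroup T, autFun α x ∈ U := Iff.rfl

theorem starSub_le (F : FusionSystem S) (T U : Subgroup Ω) : starSub F T U ≤ U := by
  intro x hx
  have := hx.2 1 (Subgroup.one_mem _)
  rwa [Helper26.autFun_one hx.1] at this

theorem starSub_self (F : FusionSystem S) (T : Subgroup Ω) : starSub F T T = T :=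
  le_antisymm (starSub_le F T T) (fun _ hx => ⟨hx, fun α _ => Helper26.autFun_mem α hx⟩)

theorem starSub_bot (F : FusionSystem S) (T : Subgroup Ω) : starSub F T ⊥ = ⊥ :=
  le_bot_iff.mp (starSub_le F T ⊥)

theorem starSub_commutator_le (F : FusionSystem S) (T : Subgroup Ω) {U U' : Subgroup Ω}
    (h : ⁅U', U'⁆ ≤ U) : ⁅starSub F T U', starSub F T U'⁆ ≤ starSub F T U := by
  rw [Subgroup.commutator_le]
  intro a ha b hb
  have hT : ⁅a, b⁆ ∈ T := by
    rw [commutatorElement_def]
    exact T.mul_mem (T.mul_mem (T.mul_mem ha.1 hb.1) (T.inv_mem ha.1)) (T.inv_mem hb.1)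
  refine ⟨hT, fun α hα => ?_⟩
  have e : autFun α ⁅a, b⁆ = ⁅autFun α a, autFun α b⁆ := by
    rw [commutatorElement_def, commutatorElement_def,
      autFun_map_mul α (T.mul_mem (T.mul_mem ha.1 hb.1) (T.inv_mem ha.1)) (T.inv_mem hb.1),
      autFun_map_mul α (T.mul_mem ha.1 hb.1) (T.inv_mem ha.1), autFun_map_mul α ha.1 hb.1,
      autFun_map_inv α ha.1, autFun_map_inv α hb.1]
  rw [e]
  exact h (Subgroup.commutator_mem_commutator (ha.2 α hα) (hb.2 α hα))

theorem starSub_stronglyClosed {F : FusionSystem S} {T : Subgroup Ω} {E : FusionSystem T}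
    (hinv : E.IsInvariantIn F) {U : Subgroup Ω} (hU : E.StronglyClosed U) :
    F.StronglyClosed (starSub F T U) := by
  obtain ⟨-, hT, hI, hFr⟩ := Helper26.isInvariantIn_iff.mp hinv
  rw [Helper26.stronglyClosed_iff]
  refine ⟨fun x hx => hT.1 hx.1, fun R hR g hg x hx => ?_⟩
  have hRT : R ≤ T := fun y hy => (hR hy).1
  have hgT : ∀ y ∈ R, g y ∈ T := fun y hy => Helper26.stronglyClosed_map_mem hT hg hy (hRT hy)
  refine ⟨hgT x hx, fun β hβ => ?_⟩
  have ha : IsMap F R (autFun β ∘ g) := hg.comp ((Helper26.mem_autGroup_iff hT.1).mp hβ) hgT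
  obtain ⟨α, hα, f₀, hf₀, hfa⟩ := hFr R hRT _ ha
  obtain ⟨h, hh, hhα⟩ := hI R hRT f₀ hf₀ α hα
  have hαm : IsMap F R (autFun α) := ((Helper26.mem_autGroup_iff hT.1).mp hα).mono hRT
  have hle : img R (autFun α) ≤ U := by
    intro y hy
    obtain ⟨w, hw, rfl⟩ := hαm.mem_img.mp hy
    exact (hR hw).2 α hα
  have h1 := (Helper26.stronglyClosed_iff.mp hU).2 _ hle h hh _ (Helper26.mem_img_of_mem hx)
  rw [hhα x hx, ← hfa x hx] at h1
  exact h1

theorem preimage_commutator_le {F : FusionSystem S} {R : Subgroup Ω} {θ : S →* Ω'}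
    (_d : FacData F R θ S') {V V' : Subgroup Ω'} (h : ⁅V', V'⁆ ≤ V) :
    ⁅preimageAlong θ V', preimageAlong θ V'⁆ ≤ preimageAlong θ V := by
  rw [Subgroup.commutator_le]
  intro a ha b hb
  obtain ⟨haS, ha'⟩ := mem_preimageAlong.mp ha
  obtain ⟨hbS, hb'⟩ := mem_preimageAlong.mp hb
  have hS4 : ⁅a, b⁆ ∈ S := by
    rw [commutatorElement_def]
    exact S.mul_mem (S.mul_mem (S.mul_mem haS hbS) (S.inv_mem haS)) (S.inv_mem hbS)
  refine mem_preimageAlong.mpr ⟨hS4, ?_⟩
  have e : toFun₂ θ ⁅a, b⁆ = ⁅toFun₂ θ a, toFun₂ θ b⁆ := by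
    rw [commutatorElement_def, commutatorElement_def,
      Helper26.toFun₂_mul θ (S.mul_mem (S.mul_mem haS hbS) (S.inv_mem haS)) (S.inv_mem hbS),
      Helper26.toFun₂_mul θ (S.mul_mem haS hbS) (S.inv_mem haS), Helper26.toFun₂_mul θ haS hbS,
      Helper26.toFun₂_inv θ haS, Helper26.toFun₂_inv θ hbS]
  rw [e]
  exact h (Subgroup.commutator_mem_commutator ha' hb')

theorem image_commutator_le {θ : S →* Ω'} {A A' : Subgroup Ω} (h : ⁅A', A'⁆ ≤ A) :
    ⁅imageAlong θ A', imageAlong θ A'⁆ ≤ imageAlong θ A := by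
  rw [Subgroup.commutator_le]
  intro u hu v hv
  obtain ⟨a, ha, haS, rfl⟩ := mem_imageAlong.mp hu
  obtain ⟨b, hb, hbS, rfl⟩ := mem_imageAlong.mp hv
  have hS4 : ⁅a, b⁆ ∈ S := by
    rw [commutatorElement_def]
    exact S.mul_mem (S.mul_mem (S.mul_mem haS hbS) (S.inv_mem haS)) (S.inv_mem hbS)
  refine mem_imageAlong.mpr ⟨⁅a, b⁆, h (Subgroup.commutator_mem_commutator ha hb), hS4, ?_⟩
  rw [commutatorElement_def, commutatorElement_def,
    Helper26.toFun₂_mul θ (S.mul_mem (S.mul_mem haS hbS) (S.inv_mem haS)) (S.inv_mem hbS),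
    Helper26.toFun₂_mul θ (S.mul_mem haS hbS) (S.inv_mem haS), Helper26.toFun₂_mul θ haS hbS,
    Helper26.toFun₂_inv θ haS, Helper26.toFun₂_inv θ hbS]

theorem solvable_iff_normal_factor [Finite S] {p : ℕ} [Fact p.Prime] (hS : IsPGroup p S)
    {F : FusionSystem S} (hF : F.IsSaturated p) {T : Subgroup Ω} {E : FusionSystem T}
    (hEs : E.IsSaturated p) (hinv : E.IsInvariantIn F) {θ : S →* Ω'} {D : FusionSystem S'}
    (hD : F.IsFactorSystem T θ D) :
    F.IsSolvableSystem ↔ (E.IsSolvableSystem ∧ D.IsSolvableSystem) := by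
  obtain ⟨hsub, hT, -, -⟩ := Helper26.isInvariantIn_iff.mp hinv
  have hsub' := Helper26.isSubsystemOf_iff.mp hsub
  have d : FacData F T θ S' := ⟨hT, hD.2.1, hD.2.2.1⟩
  have hiff := (Helper26.isFactorSystem_iff d).mp hD
  have hDs := Helper26.factor_saturated hS hF d hiff
  have hfinT : Finite T := Helper26.finite_of_le hT.1
  have hpT : IsPGroup p T := hS.to_le hT.1
  have hfinS' : Finite S' := by
    have := d.range
    subst this
    exact Finite.of_surjective θ.rangeRestrict θ.rangeRestrict_surjective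
  have hpS' : IsPGroup p S' := by
    have := d.range
    subst this
    exact IsPGroup.of_surjective hS θ.rangeRestrict θ.rangeRestrict_surjective
  constructor
  · intro h
    obtain ⟨n, f, h0, hn, -, hsc, hc⟩ := exists_series_of_solvable hS hF h
    constructor
    · refine solvable_of_series hpT hEs n (fun k => f k ⊓ T) (by simp [h0])
        (by show f n ⊓ T = T; rw [hn]; exact inf_eq_right.mpr hT.1) (fun k => ?_) (fun k => ?_)
      · rw [Helper26.stronglyClosed_iff]
        refine ⟨inf_le_right, fun R hR g hg x hx => ⟨?_, hg.mem_S hx⟩⟩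
        exact (Helper26.stronglyClosed_iff.mp (hsc k)).2 R (hR.trans inf_le_left) g
          (hsub' R g hg) x hx
      · refine le_inf ((Subgroup.commutator_mono inf_le_left inf_le_left).trans (hc k)) ?_
        refine (Subgroup.commutator_mono inf_le_right inf_le_right).trans ?_
        rw [Subgroup.commutator_le]
        intro a ha b hb
        rw [commutatorElement_def]
        exact T.mul_mem (T.mul_mem (T.mul_mem ha hb) (T.inv_mem ha)) (T.inv_mem hb)
    · refine solvable_of_series hpS' hDs n (fun k => imageAlong θ (f k)) ?_ ?_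
        (fun k => stronglyClosed_image d hiff (hsc k)) (fun k => image_commutator_le (hc k))
      · show imageAlong θ (f 0) = ⊥
        rw [h0, eq_bot_iff]
        intro y hy
        obtain ⟨x, hx, -, rfl⟩ := mem_imageAlong.mp hy
        rw [Subgroup.mem_bot] at hx
        rw [hx, Helper26.toFun₂_one]
        exact Subgroup.one_mem _
      · show imageAlong θ (f n) = S'
        rw [hn]
        apply le_antisymm
        · intro y hy
          obtain ⟨x, -, hxS, rfl⟩ := mem_imageAlong.mp hy
          exact d.mem_S' hxS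
        · intro y hy
          obtain ⟨x, hx, rfl⟩ := d.exists_pre hy
          exact mem_imageAlong.mpr ⟨x, hx, hx, rfl⟩
  · rintro ⟨hE, hDsol⟩
    obtain ⟨n₁, u, hu0, hun, -, husc, huc⟩ := exists_series_of_solvable hpT hEs hE
    obtain ⟨n₂, v, hv0, hvn, -, hvsc, hvc⟩ := exists_series_of_solvable hpS' hDs hDsol
    have hpre0 : preimageAlong θ (v 0) = starSub F T (u n₁) := by
      rw [hv0, hun, starSub_self]
      ext x
      rw [mem_preimageAlong, Subgroup.mem_bot]
      constructor
      · rintro ⟨hxS, hx⟩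
        exact (d.ker' hxS).mp hx
      · intro hx
        exact ⟨hT.1 hx, (d.ker' (hT.1 hx)).mpr hx⟩
    refine solvable_of_series hS hF (n₁ + n₂)
      (fun k => if k < n₁ then starSub F T (u k) else preimageAlong θ (v (k - n₁))) ?_ ?_ ?_ ?_
    · show (if 0 < n₁ then starSub F T (u 0) else preimageAlong θ (v (0 - n₁))) = ⊥
      split_ifs with h
      · rw [hu0, starSub_bot]
      · have : n₁ = 0 := by omega
        subst this
        rw [Nat.sub_zero, hpre0, hu0, starSub_bot]
    · show (if n₁ + n₂ < n₁ then _ else preimageAlong θ (v (n₁ + n₂ - n₁))) = S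
      rw [if_neg (by omega), Nat.add_sub_cancel_left, hvn]
      apply le_antisymm (FacData.pre_le θ _)
      intro x hx
      exact mem_preimageAlong.mpr ⟨hx, d.mem_S' hx⟩
    · intro k
      show F.StronglyClosed (if k < n₁ then _ else _)
      split_ifs with h
      · exact starSub_stronglyClosed hinv (husc k)
      · exact stronglyClosed_preimage hS hF d hiff (hvsc _)
    · intro k
      show ⁅(if k + 1 < n₁ then starSub F T (u (k + 1)) else preimageAlong θ (v (k + 1 - n₁))),
        (if k + 1 < n₁ then starSub F T (u (k + 1)) else preimageAlong θ (v (k + 1 - n₁)))⁆ ≤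
        (if k < n₁ then starSub F T (u k) else preimageAlong θ (v (k - n₁)))
      by_cases h1 : k + 1 < n₁
      · rw [if_pos h1, if_pos (by omega)]
        exact starSub_commutator_le F T (huc k)
      · by_cases h2 : k < n₁
        · have e : k + 1 = n₁ := by omega
          rw [if_neg h1, if_pos h2, e, Nat.sub_self, hpre0, ← e]
          exact starSub_commutator_le F T (huc k)
        · rw [if_neg h1, if_neg h2]
          have e : k + 1 - n₁ = (k - n₁) + 1 := by omega
          rw [e]
          exact preimage_commutator_le d (hvc _)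

end Cfsg.Agent.Lib.Helper27
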