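import Mathlib
import Cfsg.Agent.Lib.Helper14.Unipotent
import Cfsg.Agent.Lib.Helper12.SLn
import Cfsg.Agent.Lib.Helper12.Transv

set_option autoImplicit false

namespace Cfsg.Agent.Lib.Helper27.SLUni

open Matrix

/-- In a finite group a multiplicatively closed predicate containing `1` defines a subgroup. -/
def finSubgroup {G : Type*} [Group G] [Finite G] (P : G → Prop) (h1 : P 1)
    (hm : ∀ a b, P a → P b → P (a * b)) : Subgroup G where
  carrier := {x | P x}
  one_mem' := h1
  mul_mem' := hm _ _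
  inv_mem' := by
    intro x hx
    have hpow : ∀ k : ℕ, P (x ^ k) := by
      intro k
      induction k with
      | zero => simpa using h1
      | succ k ih => rw [pow_succ]; exact hm _ _ ih hx
    have : x⁻¹ = x ^ (orderOf x - 1) := by
      have h := orderOf_pos x
      rw [eq_comm, ← mul_eq_one_iff_eq_inv, ← pow_succ, Nat.sub_add_cancel h, pow_orderOf_eq_one]
    show P x⁻¹
    rw [this]; exact hpow _

theorem mem_finSubgroup {G : Type*} [Group G] [Finite G] (P : G → Prop) (h1 : P 1)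
    (hm : ∀ a b, P a → P b → P (a * b)) (x : G) : x ∈ finSubgroup P h1 hm ↔ P x := Iff.rfl

variable {K : Type*} [Field K] {n : ℕ}

/-- upper triangular -/
def IsUT (x : Matrix (Fin n) (Fin n) K) : Prop := ∀ i j, j < i → x i j = 0

theorem IsUT.one : IsUT (1 : Matrix (Fin n) (Fin n) K) := by
  intro i j h
  rw [Matrix.one_apply_ne (ne_of_gt h)]

theorem IsUT.mul {x y : Matrix (Fin n) (Fin n) K} (hx : IsUT x) (hy : IsUT y) : IsUT (x * y) := by
  intro i j h
  rw [Matrix.mul_apply]
  refine Finset.sum_eq_zero (fun k _ => ?_)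
  by_cases hk : k < i
  · rw [hx i k hk, zero_mul]
  · rw [hy k j (lt_of_lt_of_le h (not_lt.1 hk)), mul_zero]

theorem IsUT.mul_diag {x y : Matrix (Fin n) (Fin n) K} (hx : IsUT x) (hy : IsUT y) (i : Fin n) :
    (x * y) i i = x i i * y i i := by
  rw [Matrix.mul_apply]
  refine Finset.sum_eq_single i (fun k _ hk => ?_) (fun h => absurd (Finset.mem_univ _) h)
  rcases lt_or_gt_of_ne hk with h | h
  · rw [hx i k h, zero_mul]
  · rw [hy k i h, mul_zero]

theorem IsUT.pow {x : Matrix (Fin n) (Fin n) K} (hx : IsUT x) (m : ℕ) : IsUT (x ^ m) := by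
  induction m with
  | zero => rw [pow_zero]; exact IsUT.one
  | succ m ih => rw [pow_succ]; exact ih.mul hx

theorem IsUT.pow_diag {x : Matrix (Fin n) (Fin n) K} (hx : IsUT x) (m : ℕ) (i : Fin n) :
    (x ^ m) i i = (x i i) ^ m := by
  induction m with
  | zero => simp
  | succ m ih => rw [pow_succ, (hx.pow m).mul_diag hx, ih, pow_succ]

variable [Finite K]

instance : Finite (SpecialLinearGroup (Fin n) K) := by
  unfold Matrix.SpecialLinearGroup
  exact Subtype.finite

/-- Borel subgroup -/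
def B (n : ℕ) (K : Type*) [Field K] [Finite K] : Subgroup (SpecialLinearGroup (Fin n) K) :=
  finSubgroup (fun x => IsUT x.1) IsUT.one (fun _ _ ha hb => ha.mul hb)

/-- unitriangular subgroup -/
def U (n : ℕ) (K : Type*) [Field K] [Finite K] : Subgroup (SpecialLinearGroup (Fin n) K) :=
  finSubgroup (fun x => IsUT x.1 ∧ ∀ i, x.1 i i = 1) ⟨IsUT.one, fun i => by simp⟩
    (fun a b ha hb => ⟨ha.1.mul hb.1, fun i => by
      show (a.1 * b.1) i i = 1
      rw [ha.1.mul_diag hb.1, ha.2, hb.2, one_mul]⟩)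

theorem mem_B {x : SpecialLinearGroup (Fin n) K} : x ∈ B n K ↔ IsUT x.1 := Iff.rfl
theorem mem_U {x : SpecialLinearGroup (Fin n) K} : x ∈ U n K ↔ IsUT x.1 ∧ ∀ i, x.1 i i = 1 := Iff.rfl

theorem U_le_B : U n K ≤ B n K := fun _ h => h.1

/-- parabolic -/
def Par (I : Fin n → Prop) (K : Type*) [Field K] [Finite K] :
    Subgroup (SpecialLinearGroup (Fin n) K) :=
  finSubgroup (fun x => ∀ i j, ¬ I i → I j → x.1 i j = 0)
    (fun i j hi hj => by
      have : i ≠ j := by rintro rfl; exact hi hj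
      simp [this])
    (fun a b ha hb i j hi hj => by
      show (a.1 * b.1) i j = 0
      rw [Matrix.mul_apply]
      refine Finset.sum_eq_zero (fun k _ => ?_)
      by_cases hk : I k
      · rw [ha i k hi hk, zero_mul]
      · rw [hb k j hk hj, mul_zero])

/-- unipotent radical -/
def Rad (I : Fin n → Prop) (K : Type*) [Field K] [Finite K] :
    Subgroup (SpecialLinearGroup (Fin n) K) :=
  finSubgroup (fun x => ∀ i j, ¬ (I i ∧ ¬ I j) → x.1 i j = (1 : Matrix (Fin n) (Fin n) K) i j)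
    (fun i j _ => rfl)
    (fun a b ha hb i j h => by
      show (a.1 * b.1) i j = _
      rw [Matrix.mul_apply]
      by_cases hi : I i
      · have hj : I j := by by_contra hj; exact h ⟨hi, hj⟩
        have h2 : ∀ k, b.1 k j = (1 : Matrix (Fin n) (Fin n) K) k j :=
          fun k => hb k j (fun h => h.2 hj)
        simp_rw [h2, Matrix.one_apply]
        simp only [mul_ite, mul_one, mul_zero, Finset.sum_ite_eq', Finset.mem_univ, if_true]
        rw [ha i j h, Matrix.one_apply]
      · have h2 : ∀ k, a.1 i k = (1 : Matrix (Fin n) (Fin n) K) i k :=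
          fun k => ha i k (fun h => hi h.1)
        simp_rw [h2, Matrix.one_apply]
        simp only [ite_mul, one_mul, zero_mul, Finset.sum_ite_eq, Finset.mem_univ, if_true]
        rw [hb i j h, Matrix.one_apply])

theorem mem_Par {I : Fin n → Prop} {x : SpecialLinearGroup (Fin n) K} :
    x ∈ Par I K ↔ ∀ i j, ¬ I i → I j → x.1 i j = 0 := Iff.rfl
theorem mem_Rad {I : Fin n → Prop} {x : SpecialLinearGroup (Fin n) K} :
    x ∈ Rad I K ↔ ∀ i j, ¬ (I i ∧ ¬ I j) → x.1 i j = (1 : Matrix (Fin n) (Fin n) K) i j := Iff.rfl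

/-- `I` is an initial segment. -/
def Ini (I : Fin n → Prop) : Prop := ∀ i j, I i → ¬ I j → i < j

theorem U_le_Par {I : Fin n → Prop} (hI : Ini I) : U n K ≤ Par I K :=
  fun _ h i j hi hj => h.1 i j (hI j i hj hi)

theorem Rad_le_U {I : Fin n → Prop} (hI : Ini I) : Rad I K ≤ U n K := by
  intro x h
  refine ⟨fun i j hij => ?_, fun i => ?_⟩
  · rw [h i j (fun h' => absurd (hI i j h'.1 h'.2) (not_lt.2 hij.le)), Matrix.one_apply_ne (ne_of_gt hij)]
  · rw [h i i (fun h' => h'.2 h'.1), Matrix.one_apply_eq]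

theorem conj_mem_Rad {I : Fin n → Prop} {x r : SpecialLinearGroup (Fin n) K} (hx : x ∈ Par I K)
    (hr : r ∈ Rad I K) : x * r * x⁻¹ ∈ Rad I K := by
  have hy : x⁻¹ ∈ Par I K := inv_mem hx
  obtain ⟨y, hy'⟩ : ∃ y, y = x⁻¹ := ⟨_, rfl⟩
  rw [← hy'] at hy ⊢
  have hxy : x.1 * y.1 = 1 := by
    have : x * y = 1 := by rw [hy']; exact mul_inv_cancel x
    exact congrArg Subtype.val this
  intro i j h
  show (x.1 * r.1 * y.1) i j = _
  have h1 : x.1 * r.1 * y.1 = 1 + x.1 * (r.1 - 1) * y.1 := by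
    rw [mul_sub, sub_mul, mul_one, hxy]; abel
  rw [h1, Matrix.add_apply]
  have h2 : (x.1 * (r.1 - 1) * y.1) i j = 0 := by
    rw [Matrix.mul_apply]
    refine Finset.sum_eq_zero (fun l _ => ?_)
    rw [Matrix.mul_apply, Finset.sum_mul]
    refine Finset.sum_eq_zero (fun k _ => ?_)
    by_cases hkl : I k ∧ ¬ I l
    · by_cases hi : I i
      · have hj : I j := by by_contra hj; exact h ⟨hi, hj⟩
        rw [hy l j hkl.2 hj, mul_zero]
      · rw [hx i k hi hkl.1, zero_mul, zero_mul]
    · rw [Matrix.sub_apply, hr k l hkl, sub_self, mul_zero, zero_mul]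
  rw [h2, add_zero]

theorem Par_le_normalizer (I : Fin n → Prop) :
    Par I K ≤ Subgroup.normalizer ((Rad I K : Subgroup _) : Set (SpecialLinearGroup (Fin n) K)) := by
  intro x hx
  rw [Subgroup.mem_normalizer_iff]
  intro r
  refine ⟨fun hr => conj_mem_Rad hx hr, fun hr => ?_⟩
  have := conj_mem_Rad (inv_mem hx) hr
  have h2 : x⁻¹ * (x * r * x⁻¹) * x⁻¹⁻¹ = r := by group
  rwa [h2] at this

theorem Rad_comm {I : Fin n → Prop} {a b : SpecialLinearGroup (Fin n) K} (ha : a ∈ Rad I K)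
    (hb : b ∈ Rad I K) : a * b = b * a := by
  have key : ∀ a b : SpecialLinearGroup (Fin n) K, a ∈ Rad I K → b ∈ Rad I K →
      (a.1 - 1) * (b.1 - 1) = 0 := by
    intro a b ha hb
    ext i j
    rw [Matrix.mul_apply]
    refine Finset.sum_eq_zero (fun k _ => ?_)
    by_cases hk : I k
    · rw [Matrix.sub_apply, ha i k (fun h => h.2 hk), sub_self, zero_mul]
    · rw [Matrix.sub_apply (b.1), hb k j (fun h => hk h.1), sub_self, mul_zero]
  apply Subtype.ext
  show a.1 * b.1 = b.1 * a.1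
  have h1 := key a b ha hb
  have h2 := key b a hb ha
  have e1 : a.1 * b.1 = (a.1 - 1) * (b.1 - 1) + a.1 + b.1 - 1 := by noncomm_ring
  have e2 : b.1 * a.1 = (b.1 - 1) * (a.1 - 1) + a.1 + b.1 - 1 := by noncomm_ring
  rw [e1, e2, h1, h2]

end Cfsg.Agent.Lib.Helper27.SLUni
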