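import Cfsg.Agent.Lib.Helper27.SLUni

set_option autoImplicit false

namespace Cfsg.Agent.Lib.Helper27.SLUni

open Matrix

variable {K : Type*} [Field K] {n : ℕ}

/-- abbreviation for the transvections of `SL` -/
abbrev tv {i j : Fin n} (hij : i ≠ j) (c : K) : SpecialLinearGroup (Fin n) K :=
  SpecialLinearGroup.transvection hij c

theorem tv_apply {i j : Fin n} (hij : i ≠ j) (c : K) (a b : Fin n) :
    (tv hij c).1 a b = (1 : Matrix (Fin n) (Fin n) K) a b + if a = i ∧ b = j then c else 0 := by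
  show (Matrix.transvection i j c) a b = _
  rw [Matrix.transvection, Matrix.add_apply, Matrix.single_apply]
  congr 1
  by_cases h : a = i ∧ b = j
  · rw [if_pos h, if_pos ⟨h.1.symm, h.2.symm⟩]
  · rw [if_neg h, if_neg (fun h' => h ⟨h'.1.symm, h'.2.symm⟩)]

theorem tv_mul_apply {i j : Fin n} (hij : i ≠ j) (c : K) (u : Matrix (Fin n) (Fin n) K)
    (a b : Fin n) : ((tv hij c).1 * u) a b = u a b + if a = i then c * u j b else 0 := by
  show (Matrix.transvection i j c * u) a b = _
  rw [Matrix.transvection, add_mul, one_mul, Matrix.add_apply]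
  congr 1
  by_cases h : a = i
  · subst h; rw [if_pos rfl, Matrix.single_mul_apply_same]
  · rw [if_neg h, Matrix.single_mul_apply_of_ne _ _ _ _ _ h]

theorem mul_tv_apply {i j : Fin n} (hij : i ≠ j) (c : K) (u : Matrix (Fin n) (Fin n) K)
    (a b : Fin n) : (u * (tv hij c).1) a b = u a b + if b = j then u a i * c else 0 := by
  show (u * Matrix.transvection i j c) a b = _
  rw [Matrix.transvection, mul_add, mul_one, Matrix.add_apply]
  congr 1
  by_cases h : b = j
  · subst h; rw [if_pos rfl, Matrix.mul_single_apply_same]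
  · rw [if_neg h, Matrix.mul_single_apply_of_ne _ _ _ _ _ h]

theorem tv_pow {i j : Fin n} (hij : i ≠ j) (c : K) (m : ℕ) : (tv hij c) ^ m = tv hij (m * c) := by
  induction m with
  | zero =>
    rw [pow_zero]
    apply Subtype.ext
    show (1 : Matrix (Fin n) (Fin n) K) = Matrix.transvection i j _
    simp
  | succ m ih =>
    rw [pow_succ, ih]
    apply Subtype.ext
    show Matrix.transvection i j _ * Matrix.transvection i j _ = Matrix.transvection i j _
    rw [Matrix.transvection_mul_transvection_same _ _ hij]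
    congr 1
    push_cast; ring

theorem tv_pow_char (p : ℕ) [CharP K p] {i j : Fin n} (hij : i ≠ j) (c : K) :
    (tv hij c) ^ p = 1 := by
  rw [tv_pow, CharP.cast_eq_zero, zero_mul]
  apply Subtype.ext
  show Matrix.transvection i j _ = (1 : Matrix (Fin n) (Fin n) K)
  simp

theorem tv_inv {i j : Fin n} (hij : i ≠ j) (c : K) : (tv hij c)⁻¹ = tv hij (-c) :=
  SpecialLinearGroup.transvection_inv hij c

variable [Finite K]

theorem tv_mem_U {i j : Fin n} (hij : i < j) (c : K) : tv (ne_of_lt hij) c ∈ U n K := by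
  refine ⟨fun a b hab => ?_, fun a => ?_⟩
  · rw [tv_apply, Matrix.one_apply_ne (ne_of_gt hab), if_neg, add_zero]
    rintro ⟨rfl, rfl⟩
    exact absurd hij (not_lt.2 hab.le)
  · rw [tv_apply, Matrix.one_apply_eq, if_neg, add_zero]
    rintro ⟨rfl, h⟩
    exact absurd h (ne_of_lt hij)

theorem tv_mem_Par {I : Fin n → Prop} {i j : Fin n} (hij : i ≠ j) (h : ¬ (¬ I i ∧ I j)) (c : K) :
    tv hij c ∈ Par I K := by
  intro a b ha hb
  have hab : a ≠ b := by rintro rfl; exact ha hb
  rw [tv_apply, Matrix.one_apply_ne hab, if_neg, add_zero]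
  rintro ⟨rfl, rfl⟩
  exact h ⟨ha, hb⟩

theorem tv_mem_Rad {I : Fin n → Prop} {i j : Fin n} (hij : i ≠ j) (h : I i ∧ ¬ I j) (c : K) :
    tv hij c ∈ Rad I K := by
  intro a b hab
  rw [tv_apply, if_neg, add_zero]
  rintro ⟨rfl, rfl⟩
  exact hab h

theorem isUT_of_normalizes {x : SpecialLinearGroup (Fin n) K}
    (h : ∀ u ∈ U n K, x * u * x⁻¹ ∈ U n K) : IsUT x.1 := by
  have key : ∀ k : Fin n, ∀ i, i < k → x.1 k i = 0 := by
    intro k
    induction k using WellFoundedGT.induction with
    | ind k ih =>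
      intro i hik
      obtain ⟨w, hw⟩ : ∃ w, w = x * tv (ne_of_lt hik) 1 * x⁻¹ := ⟨_, rfl⟩
      have hwU : w ∈ U n K := hw ▸ h _ (tv_mem_U hik 1)
      have e : x * tv (ne_of_lt hik) 1 = w * x := by rw [hw]; group
      have e' : x.1 * (tv (ne_of_lt hik) (1 : K)).1 = w.1 * x.1 := congrArg Subtype.val e
      have e2 := congrFun (congrFun e' k) k
      rw [mul_tv_apply, if_pos rfl, mul_one, Matrix.mul_apply,
        Finset.sum_eq_single k (fun m _ hm => ?_) (fun h => absurd (Finset.mem_univ _) h),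
        hwU.2 k, one_mul] at e2
      · exact left_eq_add.1 e2.symm |> fun h => h
      · rcases lt_or_gt_of_ne hm with h' | h'
        · rw [hwU.1 k m h', zero_mul]
        · rw [ih m h' k h', mul_zero]
  exact fun i j hij => key i j hij

theorem pow_char_pow_eq_one (p : ℕ) [Fact p.Prime] [CharP K p] {a : K} {k : ℕ}
    (h : a ^ (p ^ k) = 1) : a = 1 := by
  have h1 : (a - 1) ^ (p ^ k) = 0 := by
    rw [sub_pow_char_pow, h, one_pow, sub_self]
  exact sub_eq_zero.1 (pow_eq_zero_iff (pow_ne_zero _ (Fact.out : p.Prime).ne_zero) |>.1 h1)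

theorem mem_U_of_mem_B_of_pow (p : ℕ) [Fact p.Prime] [CharP K p]
    {b : SpecialLinearGroup (Fin n) K} (hb : b ∈ B n K) {k : ℕ} (h : b ^ (p ^ k) = 1) :
    b ∈ U n K := by
  refine ⟨hb, fun i => ?_⟩
  have h1 : (b.1 ^ (p ^ k)) i i = 1 := by
    have : b.1 ^ (p ^ k) = 1 := by
      have := congrArg Subtype.val h
      simpa using this
    rw [this, Matrix.one_apply_eq]
  rw [IsUT.pow_diag hb] at h1
  exact pow_char_pow_eq_one p h1

theorem U_pow (p : ℕ) [Fact p.Prime] [CharP K p] {u : SpecialLinearGroup (Fin n) K}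
    (hu : u ∈ U n K) : u ^ (p ^ n) = 1 := by
  have hbt : (u.1 - 1).BlockTriangular id := by
    intro i j hij
    have hij' : j < i := hij
    rw [Matrix.sub_apply, hu.1 i j hij', Matrix.one_apply_ne (ne_of_gt hij'), sub_zero]
  have hcp : (u.1 - 1).charpoly = Polynomial.X ^ n := by
    rw [Matrix.charpoly_of_upperTriangular _ hbt]
    have : ∀ i, (u.1 - 1) i i = 0 := fun i => by
      rw [Matrix.sub_apply, hu.2 i, Matrix.one_apply_eq, sub_self]
    simp [this]
  have h0 : (u.1 - 1) ^ n = 0 := by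
    have := Matrix.aeval_self_charpoly (u.1 - 1)
    rw [hcp] at this
    simpa using this
  have h1 : (u.1 - 1) ^ (p ^ n) = 0 :=
    pow_eq_zero_of_le (Nat.lt_pow_self (Fact.out : p.Prime).one_lt).le h0
  rw [Cfsg.Agent.Lib.Helper14.sub_one_pow_char_pow, sub_eq_zero] at h1
  apply Subtype.ext
  simpa using h1

theorem U_isPGroup (p : ℕ) [Fact p.Prime] [CharP K p] : IsPGroup p (U n K) := by
  rintro ⟨u, hu⟩
  exact ⟨n, Subtype.ext (U_pow p hu)⟩

theorem U_maximal (p : ℕ) [Fact p.Prime] [CharP K p] {Q : Subgroup (SpecialLinearGroup (Fin n) K)}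
    (hQ : IsPGroup p Q) (hle : U n K ≤ Q) : Q = U n K := by
  by_contra hne
  have hnil : Group.IsNilpotent Q := hQ.isNilpotent
  have hlt : (U n K).subgroupOf Q < ⊤ := by
    rw [lt_top_iff_ne_top]
    intro h
    rw [Subgroup.subgroupOf_eq_top] at h
    exact hne (le_antisymm h hle)
  have h2 := normalizerCondition_of_isNilpotent (G := Q) _ hlt
  obtain ⟨y, hyN, hyU⟩ := SetLike.exists_of_lt h2
  apply hyU
  rw [Subgroup.mem_subgroupOf]
  obtain ⟨k, hk⟩ := hQ y
  refine mem_U_of_mem_B_of_pow p (k := k) (isUT_of_normalizes (fun u hu => ?_)) ?_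
  · have := (Subgroup.mem_normalizer_iff.1 hyN ⟨u, hle hu⟩).1 (Subgroup.mem_subgroupOf.2 hu)
    exact Subgroup.mem_subgroupOf.1 this
  · exact congrArg Subtype.val hk

/-- the unitriangular group as a Sylow subgroup -/
def USyl (p : ℕ) [Fact p.Prime] (n : ℕ) (K : Type*) [Field K] [Finite K] [CharP K p] :
    Sylow p (SpecialLinearGroup (Fin n) K) :=
  ⟨U n K, U_isPGroup p, fun hQ hle => U_maximal p hQ hle⟩

end Cfsg.Agent.Lib.Helper27.SLUni
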