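import Cfsg.Agent.Lib.Helper27.SLUni2

set_option autoImplicit false

namespace Cfsg.Agent.Lib.Helper27.SLUni

open Matrix

variable {K : Type*} [Field K] {n : ℕ}

theorem rank_vecMulVec_eq_one (a w : Fin n → K) (ha : a ≠ 0) (hw : w ≠ 0) :
    (vecMulVec a w).rank = 1 := by
  apply le_antisymm (rank_vecMulVec_le a w)
  rw [Nat.one_le_iff_ne_zero]
  intro h
  rw [Matrix.rank, Submodule.finrank_eq_zero, LinearMap.range_eq_bot] at h
  obtain ⟨i, hi⟩ := Function.ne_iff.1 ha
  obtain ⟨j, hj⟩ := Function.ne_iff.1 hw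
  have h2 := congrFun (LinearMap.congr_fun h (Pi.single j 1)) i
  rw [Matrix.mulVecLin_apply, Matrix.mulVec_single_one] at h2
  simp only [Matrix.col_apply, vecMulVec_apply, LinearMap.zero_apply, Pi.zero_apply] at h2
  rcases mul_eq_zero.1 h2 with h3 | h3
  · exact hi h3
  · exact hj h3

theorem vecMulVec_sq (a w : Fin n → K) (h : w ⬝ᵥ a = 0) :
    vecMulVec a w * vecMulVec a w = 0 := by
  rw [vecMulVec_mul_vecMulVec, h, zero_smul]
  ext i j
  simp [vecMulVec_apply]

theorem tv_sub_one {i j : Fin n} (hij : i ≠ j) (c : K) :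
    (tv hij c).1 - 1 = vecMulVec (Pi.single i 1) (Pi.single j c) := by
  ext a b
  rw [Matrix.sub_apply, tv_apply, add_sub_cancel_left, vecMulVec_apply, Pi.single_apply,
    Pi.single_apply]
  by_cases ha : a = i <;> by_cases hb : b = j <;> simp [ha, hb]

theorem exists_conj (hn : 3 ≤ n) (s s' : SpecialLinearGroup (Fin n) K)
    (h1 : (s.1 - 1).rank = 1) (h2 : (s.1 - 1) * (s.1 - 1) = 0)
    (h1' : (s'.1 - 1).rank = 1) (h2' : (s'.1 - 1) * (s'.1 - 1) = 0) :
    ∃ g : SpecialLinearGroup (Fin n) K, g * s * g⁻¹ = s' := by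
  have h01 : (⟨0, by omega⟩ : Fin n) ≠ ⟨1, by omega⟩ := by simp [Fin.ext_iff]
  have h02 : (⟨0, by omega⟩ : Fin n) ≠ ⟨2, by omega⟩ := by simp [Fin.ext_iff]
  have h12 : (⟨1, by omega⟩ : Fin n) ≠ ⟨2, by omega⟩ := by simp [Fin.ext_iff]
  obtain ⟨G, hG⟩ := Cfsg.Agent.Lib.Helper12.exists_SL_conj_transvection_one s.1 h1 h2 _ _ _ h01 h02 h12
  obtain ⟨G', hG'⟩ := Cfsg.Agent.Lib.Helper12.exists_SL_conj_transvection_one s'.1 h1' h2' _ _ _ h01 h02 h12
  have e1 : s * G = G * tv h01 1 := Subtype.ext hG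
  have e2 : s' * G' = G' * tv h01 1 := Subtype.ext hG'
  refine ⟨G' * G⁻¹, ?_⟩
  have e3 : s = G * tv h01 1 * G⁻¹ := by rw [← e1]; group
  have e4 : s' = G' * tv h01 1 * G'⁻¹ := by rw [← e2]; group
  rw [e3, e4]; group

variable [Finite K]

theorem U_le_of_tv_mem (T : Subgroup (SpecialLinearGroup (Fin n) K))
    (hT : ∀ (i j : Fin n) (h : i < j) (c : K), tv (ne_of_lt h) c ∈ T) : U n K ≤ T := by
  classical
  have key : ∀ m : ℕ, ∀ u ∈ U n K, (Finset.univ.filter
      (fun q : Fin n × Fin n => q.1 < q.2 ∧ u.1 q.1 q.2 ≠ 0)).card = m → u ∈ T := by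
    intro m
    induction m using Nat.strong_induction_on with
    | _ m ih =>
      intro u hu hm
      by_cases hne : (Finset.univ.filter
        (fun q : Fin n × Fin n => q.1 < q.2 ∧ u.1 q.1 q.2 ≠ 0)).Nonempty
      · obtain ⟨⟨i, j⟩, hq, hmax⟩ := Finset.exists_max_image _ (fun q : Fin n × Fin n => q.1) hne
        have hq' := hq
        rw [Finset.mem_filter] at hq
        obtain ⟨-, hij, hne0⟩ := hq
        simp only at hij hne0
        have hrow : ∀ l, l ≠ j → u.1 j l = 0 := by
          intro l hl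
          rcases lt_or_gt_of_ne hl with h | h
          · exact hu.1 j l h
          · by_contra h0
            have := hmax (j, l) (Finset.mem_filter.2 ⟨Finset.mem_univ _, h, h0⟩)
            exact absurd hij (not_lt.2 this)
        obtain ⟨u', hu'def⟩ : ∃ u', u' = tv (ne_of_lt hij) (-(u.1 i j)) * u := ⟨_, rfl⟩
        have hu' : u' ∈ U n K := hu'def ▸ mul_mem (tv_mem_U hij _) hu
        have hent : ∀ a b, u'.1 a b = u.1 a b + if a = i then -(u.1 i j) * u.1 j b else 0 := by
          intro a b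
          rw [hu'def]
          exact tv_mul_apply _ _ _ _ _
        have hsub : (Finset.univ.filter
            (fun q : Fin n × Fin n => q.1 < q.2 ∧ u'.1 q.1 q.2 ≠ 0)) ⊆ (Finset.univ.filter
            (fun q : Fin n × Fin n => q.1 < q.2 ∧ u.1 q.1 q.2 ≠ 0)).erase (i, j) := by
          rintro ⟨a, b⟩ hab
          rw [Finset.mem_filter] at hab
          obtain ⟨-, hab1, hab2⟩ := hab
          simp only at hab1 hab2
          rw [hent] at hab2
          rw [Finset.mem_erase, Finset.mem_filter]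
          by_cases ha : a = i
          · subst ha
            rw [if_pos rfl] at hab2
            by_cases hb : b = j
            · subst hb
              rw [hu.2 b, mul_one, add_neg_cancel] at hab2
              exact absurd rfl hab2
            · rw [hrow b hb, mul_zero, add_zero] at hab2
              exact ⟨fun h => hb (Prod.ext_iff.1 h).2, Finset.mem_univ _, hab1, hab2⟩
          · rw [if_neg ha, add_zero] at hab2
            exact ⟨fun h => ha (Prod.ext_iff.1 h).1, Finset.mem_univ _, hab1, hab2⟩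
        have hcard : (Finset.univ.filter
            (fun q : Fin n × Fin n => q.1 < q.2 ∧ u'.1 q.1 q.2 ≠ 0)).card < m := by
          calc _ ≤ _ := Finset.card_le_card hsub
            _ < _ := Finset.card_erase_lt_of_mem hq'
            _ = m := hm
        have h3 := ih _ hcard u' hu' rfl
        have e : u = tv (ne_of_lt hij) (u.1 i j) * u' := by
          rw [hu'def, ← tv_inv, mul_inv_cancel_left]
        rw [e]
        exact mul_mem (hT _ _ hij _) h3
      · have : u = 1 := by
          apply Subtype.ext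
          ext a b
          rcases lt_trichotomy a b with h | h | h
          · by_contra h0
            apply hne
            refine ⟨(a, b), Finset.mem_filter.2 ⟨Finset.mem_univ _, h, ?_⟩⟩
            intro h1
            apply h0
            rw [h1]
            exact (Matrix.one_apply_ne (ne_of_lt h)).symm
          · subst h
            rw [hu.2 a]
            exact (Matrix.one_apply_eq a).symm
          · rw [hu.1 a b h]
            exact (Matrix.one_apply_ne (ne_of_gt h)).symm
        rw [this]; exact one_mem _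
  exact fun u hu => key _ u hu rfl

theorem center_le_B : Subgroup.center (SpecialLinearGroup (Fin n) K) ≤ B n K := by
  intro z hz
  obtain ⟨r, -, hr⟩ := Matrix.SpecialLinearGroup.mem_center_iff.1 hz
  intro i j hij
  rw [← hr]
  simp [Matrix.scalar_apply, Matrix.diagonal_apply, ne_of_gt hij]

theorem eq_one_of_mem_center_of_mem_U {z : SpecialLinearGroup (Fin n) K}
    (hz : z ∈ Subgroup.center (SpecialLinearGroup (Fin n) K)) (hU : z ∈ U n K) : z = 1 := by
  obtain ⟨r, -, hr⟩ := Matrix.SpecialLinearGroup.mem_center_iff.1 hz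
  apply Subtype.ext
  ext i j
  by_cases hij : i = j
  · subst hij
    rw [hU.2 i]; exact (Matrix.one_apply_eq i).symm
  · have : z.1 i j = 0 := by
      show (z : Matrix (Fin n) (Fin n) K) i j = 0
      rw [← hr]
      simp [Matrix.scalar_apply, Matrix.diagonal_apply, hij]
    rw [this]; exact (Matrix.one_apply_ne hij).symm

theorem eq_one_of_mem_center_of_pow (p : ℕ) [Fact p.Prime] [CharP K p]
    {z : SpecialLinearGroup (Fin n) K}
    (hz : z ∈ Subgroup.center (SpecialLinearGroup (Fin n) K)) {k : ℕ} (h : z ^ (p ^ k) = 1) :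
    z = 1 :=
  eq_one_of_mem_center_of_mem_U hz (mem_U_of_mem_B_of_pow p (center_le_B hz) h)

theorem det_eq_prod_diag {x : Matrix (Fin n) (Fin n) K} (hx : IsUT x) : x.det = ∏ i, x i i :=
  Matrix.det_of_isUpperTriangular (fun i j hij => hx i j hij)

/-- diagonal element of `SL` -/
def dg (D : Fin n → K) (hD : det (diagonal D) = 1) : Matrix.SpecialLinearGroup (Fin n) K :=
  ⟨diagonal D, hD⟩

theorem B_decomp {x : SpecialLinearGroup (Fin n) K} (hx : x ∈ B n K) :
    ∃ (D : Fin n → K) (hD : det (diagonal D) = 1), ∃ u ∈ U n K,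
      x = dg D hD * u := by
  have hD : det (diagonal (fun i => x.1 i i)) = 1 := by
    rw [det_diagonal, ← det_eq_prod_diag hx]; exact x.2
  refine ⟨fun i => x.1 i i, hD, (dg _ hD)⁻¹ * x, ?_,
    (mul_inv_cancel_left _ _).symm⟩
  obtain ⟨h, hh⟩ : ∃ h : Matrix.SpecialLinearGroup (Fin n) K, h = dg (fun i => x.1 i i) hD :=
    ⟨_, rfl⟩
  rw [← hh]
  have hB : h ∈ B n K := by
    intro i j hij
    rw [hh]
    exact Matrix.diagonal_apply_ne' _ (ne_of_lt hij)
  have hiB : h⁻¹ ∈ B n K := inv_mem hB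
  refine ⟨(mul_mem hiB hx : h⁻¹ * x ∈ B n K), fun i => ?_⟩
  show (h⁻¹.1 * x.1) i i = 1
  rw [IsUT.mul_diag hiB hx]
  have h1 : (h⁻¹.1 * h.1) i i = 1 := by
    have : h⁻¹ * h = 1 := inv_mul_cancel h
    have h2 : h⁻¹.1 * h.1 = 1 := congrArg Subtype.val this
    rw [h2, Matrix.one_apply_eq]
  rw [IsUT.mul_diag hiB hB] at h1
  have h3 : h.1 i i = x.1 i i := by rw [hh]; exact Matrix.diagonal_apply_eq _ _
  rw [← h3]; exact h1

theorem B_normalizes_U {b u : SpecialLinearGroup (Fin n) K} (hb : b ∈ B n K) (hu : u ∈ U n K) :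
    b * u * b⁻¹ ∈ U n K := by
  have hiB : b⁻¹ ∈ B n K := inv_mem hb
  refine ⟨(mul_mem (mul_mem hb (U_le_B hu)) hiB : b * u * b⁻¹ ∈ B n K), fun i => ?_⟩
  show (b.1 * u.1 * b⁻¹.1) i i = 1
  rw [IsUT.mul_diag (IsUT.mul hb hu.1) hiB, IsUT.mul_diag hb hu.1, hu.2, mul_one,
    ← IsUT.mul_diag hb hiB]
  have : b * b⁻¹ = 1 := mul_inv_cancel b
  have h2 : b.1 * b⁻¹.1 = 1 := congrArg Subtype.val this
  rw [h2, Matrix.one_apply_eq]

theorem B_le_normalizer_U :
    B n K ≤ Subgroup.normalizer ((U n K : Subgroup _) : Set (SpecialLinearGroup (Fin n) K)) := by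
  intro x hx
  rw [Subgroup.mem_normalizer_iff]
  intro r
  refine ⟨fun hr => B_normalizes_U hx hr, fun hr => ?_⟩
  have := B_normalizes_U (inv_mem hx) hr
  have h2 : x⁻¹ * (x * r * x⁻¹) * x⁻¹⁻¹ = r := by group
  rwa [h2] at this

theorem conj_lower_entry {u : SpecialLinearGroup (Fin n) K} (hu : u ∈ U n K) {a b : Fin n}
    (hab : a < b) :
    (tv (ne_of_gt hab) (1 : K) * u * (tv (ne_of_gt hab) (1 : K))⁻¹).1 b a = - u.1 a b := by
  rw [tv_inv]
  show ((tv (ne_of_gt hab) (1 : K)).1 * u.1 * (tv (ne_of_gt hab) (-1 : K)).1) b a = _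
  rw [mul_tv_apply, if_pos rfl, tv_mul_apply, tv_mul_apply, if_pos rfl, if_pos rfl, hu.1 b a hab,
    hu.2 a, hu.2 b]
  ring

end Cfsg.Agent.Lib.Helper27.SLUni
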