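import Cfsg.Agent.Lib.Helper27.SLUni3

set_option autoImplicit false

namespace Cfsg.Agent.Lib.Helper27.SLUni

open Matrix

variable {K : Type*} [Field K] {n : ℕ} [Finite K]

theorem exists_transvection_like (hn : 0 < n) {T : Subgroup (SpecialLinearGroup (Fin n) K)}
    (hTU : T ≤ U n K) (hnorm : ∀ t ∈ T, ∀ x ∈ U n K, x * t * x⁻¹ ∈ T) (hne : T ≠ ⊥) :
    ∃ s ∈ T, (s.1 - 1).rank = 1 ∧ (s.1 - 1) * (s.1 - 1) = 0 := by
  obtain ⟨t, ht, ht1⟩ := (Subgroup.ne_bot_iff_exists_ne_one).1 hne |>.elim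
    (fun t h => (⟨t.1, t.2, fun h' => h (Subtype.ext h')⟩ : ∃ t ∈ T, t ≠ 1))
  have htU := hTU ht
  obtain ⟨o, ho⟩ : ∃ o : Fin n, o = ⟨0, hn⟩ := ⟨_, rfl⟩
  have hpos : ∀ i : Fin n, i ≠ o → o < i := by
    intro i hi
    rw [ho, Fin.lt_def]
    have : i.val ≠ 0 := fun h => hi (by rw [ho]; exact Fin.ext h)
    exact Nat.pos_of_ne_zero this
  have fin : ∀ (s : SpecialLinearGroup (Fin n) K) (w : Fin n → K), w ≠ 0 → w o = 0 →
      s.1 - 1 = vecMulVec (Pi.single o 1) w →
      (s.1 - 1).rank = 1 ∧ (s.1 - 1) * (s.1 - 1) = 0 := by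
    intro s w hw hwo hs
    rw [hs]
    refine ⟨rank_vecMulVec_eq_one _ _ ?_ hw, vecMulVec_sq _ _ ?_⟩
    · intro h
      have := congrFun h o
      simp at this
    · simp [hwo]
  by_cases hA : ∃ i, i ≠ o ∧ ∃ j, t.1 i j ≠ (1 : Matrix (Fin n) (Fin n) K) i j
  · obtain ⟨i, hio, j, hj⟩ := hA
    have hoi := hpos i hio
    obtain ⟨x, hx⟩ : ∃ x, x = tv (ne_of_lt hoi) (1 : K) := ⟨_, rfl⟩
    have hxU : x ∈ U n K := hx ▸ tv_mem_U hoi 1
    refine ⟨x * t⁻¹ * x⁻¹ * t, mul_mem (hnorm _ (inv_mem ht) _ hxU) ht, ?_⟩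
    obtain ⟨E, hE⟩ : ∃ E : Matrix (Fin n) (Fin n) K, E = Matrix.single o i 1 := ⟨_, rfl⟩
    have hx1 : x.1 = 1 + E := by rw [hx, hE]; rfl
    have hx2 : x⁻¹.1 = 1 - E := by
      rw [hx, tv_inv, hE]
      show Matrix.transvection o i (-1 : K) = _
      rw [Matrix.transvection, sub_eq_add_neg]
      congr 1
      ext a b
      simp only [Matrix.single_apply, Matrix.neg_apply]
      split_ifs <;> simp
    have hEE : E * E = 0 := by
      rw [hE, Matrix.single_mul_single_of_ne _ _ _ _ hio]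
    have htE : t.1 * E = E := by
      ext a b
      rw [hE]
      by_cases hb : b = i
      · subst hb
        rw [Matrix.mul_single_apply_same, mul_one, Matrix.single_apply]
        by_cases ha : a = o
        · subst ha; rw [htU.2 a]; simp
        · rw [htU.1 a o (hpos a ha), if_neg (fun h => ha h.1.symm)]
      · rw [Matrix.mul_single_apply_of_ne _ _ _ _ _ hb, Matrix.single_apply,
          if_neg (fun h => hb h.2.symm)]
    have hTt : t⁻¹.1 * t.1 = 1 := congrArg Subtype.val (inv_mul_cancel t)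
    have hT'E : t⁻¹.1 * E = E := by
      conv_lhs => rw [← htE, ← mul_assoc, hTt, one_mul]
    have hs : (x * t⁻¹ * x⁻¹ * t).1 - 1 = E * (1 - t.1) := by
      show x.1 * t⁻¹.1 * x⁻¹.1 * t.1 - 1 = _
      rw [hx1, hx2]
      have e : (1 + E) * t⁻¹.1 * (1 - E) * t.1 =
          t⁻¹.1 * t.1 - (t⁻¹.1 * E) * t.1 + E * (t⁻¹.1 * t.1) - E * (t⁻¹.1 * E) * t.1 := by
        noncomm_ring
      rw [e, hTt, hT'E, hEE]
      noncomm_ring
    refine fin _ (fun b => (1 - t.1) i b) ?_ ?_ ?_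
    · intro h
      have := congrFun h j
      simp only [Matrix.sub_apply, Pi.zero_apply] at this
      exact hj (sub_eq_zero.1 this).symm
    · show (1 - t.1) i o = 0
      rw [Matrix.sub_apply, Matrix.one_apply_ne hio, htU.1 i o hoi, sub_zero]
    · rw [hs, hE]
      ext a b
      rw [vecMulVec_apply]
      by_cases ha : a = o
      · subst ha
        rw [Matrix.single_mul_apply_same, Pi.single_eq_same]
      · rw [Matrix.single_mul_apply_of_ne _ _ _ _ _ ha, Pi.single_eq_of_ne ha, zero_mul]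
  · push Not at hA
    refine ⟨t, ht, fin _ (fun b => (t.1 - 1) o b) ?_ ?_ ?_⟩
    · intro h
      apply ht1
      apply Subtype.ext
      ext a b
      by_cases ha : a = o
      · subst ha
        have := congrFun h b
        simp only [Matrix.sub_apply, Pi.zero_apply] at this
        exact sub_eq_zero.1 this
      · exact hA a ha b
    · show (t.1 - 1) o o = 0
      rw [Matrix.sub_apply, Matrix.one_apply_eq, htU.2 o, sub_self]
    · ext a b
      rw [vecMulVec_apply]
      by_cases ha : a = o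
      · subst ha
        rw [Pi.single_eq_same, one_mul]
      · rw [Pi.single_eq_of_ne ha, zero_mul, Matrix.sub_apply, hA a ha b, sub_self]

theorem eq_U_of_stronglyClosed (hn : 3 ≤ n) {T : Subgroup (SpecialLinearGroup (Fin n) K)}
    (hTU : T ≤ U n K) (hcl : ∀ t ∈ T, ∀ x, x * t * x⁻¹ ∈ U n K → x * t * x⁻¹ ∈ T) (hne : T ≠ ⊥) :
    T = U n K := by
  obtain ⟨s, hsT, hs1, hs2⟩ := exists_transvection_like (by omega) hTU
    (fun t ht x hx => hcl t ht x (mul_mem (mul_mem hx (hTU ht)) (inv_mem hx))) hne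
  refine le_antisymm hTU (U_le_of_tv_mem T (fun i j hij c => ?_))
  by_cases hc : c = 0
  · subst hc
    have : tv (ne_of_lt hij) (0 : K) = 1 := by
      apply Subtype.ext
      show Matrix.transvection i j (0 : K) = 1
      simp
    rw [this]; exact one_mem _
  · have h1 : ((tv (ne_of_lt hij) c).1 - 1).rank = 1 := by
      rw [tv_sub_one]
      refine rank_vecMulVec_eq_one _ _ ?_ ?_
      · intro h
        have := congrFun h i
        simp at this
      · intro h
        have := congrFun h j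
        simp [hc] at this
    have h2 : ((tv (ne_of_lt hij) c).1 - 1) * ((tv (ne_of_lt hij) c).1 - 1) = 0 := by
      rw [tv_sub_one]
      refine vecMulVec_sq _ _ ?_
      simp [ne_of_lt hij, (ne_of_lt hij).symm]
    obtain ⟨g, hg⟩ := exists_conj hn s _ hs1 hs2 h1 h2
    rw [← hg]
    exact hcl s hsT g (hg ▸ tv_mem_U hij c)

theorem centralizer_Rad {I : Fin n → Prop} (hI : Ini I) (h1 : ∃ i, I i) (h2 : ∃ j, ¬ I j)
    {x : SpecialLinearGroup (Fin n) K} (hx : ∀ r ∈ Rad I K, x * r = r * x) :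
    ∃ z ∈ Subgroup.center (SpecialLinearGroup (Fin n) K), ∃ r ∈ Rad I K, x = z * r := by
  obtain ⟨i0, hi0⟩ := h1
  obtain ⟨j0, hj0⟩ := h2
  have key : ∀ i j, I i → ¬ I j → ∀ a b,
      (if b = j then x.1 a i else 0) = (if a = i then x.1 j b else 0) := by
    intro i j hi hj a b
    have hij : i ≠ j := by rintro rfl; exact hj hi
    have e := hx _ (tv_mem_Rad hij ⟨hi, hj⟩ 1)
    have e' : x.1 * (tv hij (1 : K)).1 = (tv hij (1 : K)).1 * x.1 := congrArg Subtype.val e
    have e2 := congrFun (congrFun e' a) b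
    rw [mul_tv_apply, tv_mul_apply, mul_one, one_mul] at e2
    exact add_left_cancel e2
  have hdiag : ∀ i j, I i → ¬ I j → x.1 i i = x.1 j j := by
    intro i j hi hj
    have := key i j hi hj i j
    rwa [if_pos rfl, if_pos rfl] at this
  have hcol : ∀ i, I i → ∀ a, a ≠ i → x.1 a i = 0 := by
    intro i hi a ha
    have := key i j0 hi hj0 a j0
    rwa [if_pos rfl, if_neg ha] at this
  have hrow : ∀ j, ¬ I j → ∀ b, b ≠ j → x.1 j b = 0 := by
    intro j hj b hb
    have := key i0 j hi0 hj i0 b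
    rw [if_neg hb, if_pos rfl] at this
    exact this.symm
  obtain ⟨c, hc⟩ : ∃ c, c = x.1 i0 i0 := ⟨_, rfl⟩
  have hd : ∀ a, x.1 a a = c := by
    intro a
    by_cases ha : I a
    · rw [hdiag a j0 ha hj0, ← hdiag i0 j0 hi0 hj0, hc]
    · rw [← hdiag i0 a hi0 ha, hc]
  have hoff : ∀ a b, ¬ (I a ∧ ¬ I b) → a ≠ b → x.1 a b = 0 := by
    intro a b h hab
    by_cases hb : I b
    · exact hcol b hb a hab
    · have ha : ¬ I a := fun ha => h ⟨ha, hb⟩
      exact hrow a ha b hab.symm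
  have hUT : IsUT x.1 := by
    intro a b hab
    exact hoff a b (fun h => absurd (hI a b h.1 h.2) (not_lt.2 hab.le)) (ne_of_gt hab)
  have hcn : c ^ n = 1 := by
    have := det_eq_prod_diag hUT
    rw [x.2] at this
    simp only [hd, Finset.prod_const, Finset.card_univ, Fintype.card_fin] at this
    exact this.symm
  have hc0 : c ≠ 0 := by
    rintro rfl
    have hn0 : n ≠ 0 := by
      rintro rfl
      exact i0.elim0
    rw [zero_pow hn0] at hcn
    exact zero_ne_one hcn
  have hdz : (Matrix.scalar (Fin n) c).det = 1 := by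
    simp [hcn]
  have hdr : (c⁻¹ • x.1).det = 1 := by
    rw [Matrix.det_smul, x.2, mul_one, Fintype.card_fin, inv_pow, hcn, inv_one]
  obtain ⟨z, hz⟩ : ∃ z : Matrix.SpecialLinearGroup (Fin n) K, z.1 = Matrix.scalar (Fin n) c :=
    ⟨⟨_, hdz⟩, rfl⟩
  obtain ⟨r, hr⟩ : ∃ r : Matrix.SpecialLinearGroup (Fin n) K, r.1 = c⁻¹ • x.1 :=
    ⟨⟨_, hdr⟩, rfl⟩
  refine ⟨z, Matrix.SpecialLinearGroup.mem_center_iff.2 ⟨c, by rw [Fintype.card_fin]; exact hcn,
    hz.symm⟩, r, ?_, ?_⟩
  · intro a b h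
    rw [hr, Matrix.smul_apply, smul_eq_mul]
    by_cases hab : a = b
    · subst hab
      rw [hd, inv_mul_cancel₀ hc0, Matrix.one_apply_eq]
    · rw [hoff a b h hab, mul_zero, Matrix.one_apply_ne hab]
  · apply Subtype.ext
    show x.1 = z.1 * r.1
    rw [hz, hr]
    ext a b
    simp [Matrix.scalar_apply, Matrix.diagonal_mul, hc0]

end Cfsg.Agent.Lib.Helper27.SLUni
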