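import Cfsg.Prelude.Def_FischerSpaces
import Cfsg.Agent.Lib.Helper27.GroupLemmas
import Cfsg.Agent.S0199

/-!
Basic lemmas on 3-transpositions.
-/

set_option autoImplicit false

namespace Cfsg.Agent.Lib.Helper27

open Cfsg

variable {G : Type*} [Group G]

/-- Two involutions `z, z'` with `z` commuting with `z' z z'⁻¹` generate a `2`-group. -/
theorem isPGroup_two_of_invol {z z' : G} (hz : z * z = 1) (hz' : z' * z' = 1)
    (hc : Commute z (z' * z * z'⁻¹)) : IsPGroup 2 (Subgroup.zpowers z ⊔ Subgroup.zpowers z' : Subgroup G) := by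
  have hzi : z⁻¹ = z := inv_eq_of_mul_eq_one_left hz
  have hzi' : z'⁻¹ = z' := inv_eq_of_mul_eq_one_left hz'
  rw [hzi'] at hc
  set w := z * z' with hw
  have hw4 : w ^ 4 = 1 := by
    have h1 : w * w = z * (z' * z * z') := by rw [hw]; group
    have h2 : (z' * z * z') * (z' * z * z') = 1 := by
      calc (z' * z * z') * (z' * z * z') = z' * z * (z' * z') * z * z' := by group
        _ = z' * (z * z) * z' := by rw [hz']; group
        _ = 1 := by rw [hz, mul_one, hz']
    calc w ^ 4 = (w * w) * (w * w) := by simp only [pow_succ, pow_zero, one_mul, mul_assoc]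
      _ = z * (z' * z * z') * (z * (z' * z * z')) := by rw [h1]
      _ = z * ((z' * z * z') * z) * (z' * z * z') := by group
      _ = z * (z * (z' * z * z')) * (z' * z * z') := by rw [hc.eq]
      _ = (z * z) * ((z' * z * z') * (z' * z * z')) := by group
      _ = 1 := by rw [hz, h2, one_mul]
  have hpw : IsPGroup 2 (Subgroup.zpowers w) := by
    rintro ⟨x, hx⟩
    obtain ⟨m, rfl⟩ := Subgroup.mem_zpowers_iff.1 hx
    refine ⟨2, Subtype.ext ?_⟩
    show (w ^ m) ^ 2 ^ 2 = 1
    rw [← zpow_natCast, ← zpow_mul, mul_comm, zpow_mul, zpow_natCast]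
    norm_num [hw4]
  have hpz : IsPGroup 2 (Subgroup.zpowers z) := by
    rintro ⟨x, hx⟩
    obtain ⟨m, rfl⟩ := Subgroup.mem_zpowers_iff.1 hx
    refine ⟨1, Subtype.ext ?_⟩
    show (z ^ m) ^ 2 ^ 1 = 1
    rw [← zpow_natCast, ← zpow_mul, mul_comm, zpow_mul, zpow_natCast]
    norm_num [pow_two, hz]
  have hconj : z * w * z⁻¹ = w⁻¹ := by
    rw [hw, mul_inv_rev, hzi, hzi']
    calc z * (z * z') * z = (z * z) * z' * z := by group
      _ = z' * z := by rw [hz, one_mul]
  have hconjm : ∀ m : ℤ, z * w ^ m * z⁻¹ = (w ^ m)⁻¹ := by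
    intro m
    have := (MulAut.conj z).toMonoidHom.map_zpow w m
    simp only [MulEquiv.coe_toMonoidHom, MulAut.conj_apply] at this
    rw [this, hconj, inv_zpow]
  have hn : Subgroup.zpowers z ≤ Subgroup.normalizer (Subgroup.zpowers w : Set G) := by
    rw [Subgroup.zpowers_le, Subgroup.mem_normalizer_iff]
    intro h
    constructor
    · intro hh
      obtain ⟨m, rfl⟩ := Subgroup.mem_zpowers_iff.1 hh
      rw [hconjm]
      exact Subgroup.inv_mem _ hh
    · intro hh
      obtain ⟨m, hm⟩ := Subgroup.mem_zpowers_iff.1 hh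
      have : h = z * w ^ m * z⁻¹ := by
        rw [hm, hzi]
        calc h = (z * z) * h * (z * z) := by rw [hz]; group
          _ = z * (z * h * z) * z := by group
      rw [this, hconjm]
      exact Subgroup.inv_mem _ (Subgroup.zpow_mem_zpowers w m)
  have h1 := IsPGroup.to_sup_of_normal_right' hpz hpw hn
  refine h1.to_le (sup_le le_sup_left ?_)
  rw [Subgroup.zpowers_le]
  have : z' = z * w := by
    rw [hw, ← mul_assoc, hz, one_mul]
  rw [this]
  exact mul_mem ((le_sup_left : Subgroup.zpowers z ≤ _) (Subgroup.mem_zpowers z))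
    ((le_sup_right : Subgroup.zpowers w ≤ Subgroup.zpowers z ⊔ _) (Subgroup.mem_zpowers w))

/-- Baer–Suzuki for an involution: if `z` commutes with `z' z z'⁻¹` for every conjugate `z'` of `z` then
`z ∈ O_2(G)`. -/
theorem mem_pCore_two_of_invol [Finite G] {z : G} (hz : z * z = 1)
    (hc : ∀ g : G, Commute z ((g * z * g⁻¹) * z * (g * z * g⁻¹)⁻¹)) : z ∈ pCore 2 G := by
  have hpz : IsPGroup 2 (Subgroup.zpowers z) := by
    rintro ⟨x, hx⟩
    obtain ⟨m, rfl⟩ := Subgroup.mem_zpowers_iff.1 hx
    refine ⟨1, Subtype.ext ?_⟩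
    show (z ^ m) ^ 2 ^ 1 = 1
    rw [← zpow_natCast, ← zpow_mul, mul_comm, zpow_mul, zpow_natCast]
    norm_num [pow_two, hz]
  have : Fact (Nat.Prime 2) := ⟨Nat.prime_two⟩
  obtain ⟨N, hN, hNp, hle⟩ := Cfsg.Agent.S0199.result (p := 2) (Subgroup.zpowers z) hpz (by
    intro g
    rw [MonoidHom.map_zpowers]
    apply isPGroup_two_of_invol hz _ (hc g)
    show g * z * g⁻¹ * (g * z * g⁻¹) = 1
    calc g * z * g⁻¹ * (g * z * g⁻¹) = g * (z * z) * g⁻¹ := by group
      _ = 1 := by rw [hz]; group)
  exact le_pCore hN hNp (hle (Subgroup.mem_zpowers z))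

theorem tt_sq {D : Set G} (hD : IsThreeTranspositionSet D) {d : G} (hd : d ∈ D) : d * d = 1 := by
  have := pow_orderOf_eq_one d
  rw [hD.1 d hd, pow_two] at this
  exact this

theorem tt_inv {D : Set G} (hD : IsThreeTranspositionSet D) {d : G} (hd : d ∈ D) : d⁻¹ = d :=
  inv_eq_of_mul_eq_one_left (tt_sq hD hd)

theorem tt_ne_one {D : Set G} (hD : IsThreeTranspositionSet D) {d : G} (hd : d ∈ D) : d ≠ 1 := by
  intro h
  have := hD.1 d hd
  rw [h, orderOf_one] at this
  omega

theorem tt_commute_or_braid {D : Set G} (hD : IsThreeTranspositionSet D) {a b : G} (ha : a ∈ D)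
    (hb : b ∈ D) : Commute a b ∨ a * b * a = b * a * b := by
  have ha2 := tt_sq hD ha
  have hb2 := tt_sq hD hb
  rcases hD.2 a ha b hb with h | h
  · left
    have h1 : a * b * (a * b) = 1 := by rw [← pow_two]; exact h
    show a * b = b * a
    calc a * b = a * b * ((a * b) * (b * a)) := by
          have : (a * b) * (b * a) = 1 := by
            calc (a * b) * (b * a) = a * (b * b) * a := by group
              _ = 1 := by rw [hb2, mul_one, ha2]
          rw [this, mul_one]
      _ = (a * b * (a * b)) * (b * a) := by group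
      _ = b * a := by rw [h1, one_mul]
  · right
    have h1 : a * b * (a * b) * (a * b) = 1 := by
      rw [← h]; simp only [pow_succ, pow_zero, one_mul]
    have h2 : (b * a * b) * (b * a * b) = 1 := by
      calc (b * a * b) * (b * a * b) = b * a * (b * b) * a * b := by group
        _ = b * (a * a) * b := by rw [hb2]; group
        _ = 1 := by rw [ha2, mul_one, hb2]
    calc a * b * a = a * b * a * ((b * a * b) * (b * a * b)) := by rw [h2, mul_one]
      _ = (a * b * (a * b) * (a * b)) * (b * a * b) := by group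
      _ = b * a * b := by rw [h1, one_mul]

theorem tt_class_conj_mem {D : Set G} (hD : IsThreeTranspositionClass D) (g : G) {x : G} (hx : x ∈ D) :
    g * x * g⁻¹ ∈ D := by
  obtain ⟨-, ⟨d₀, -, hDc⟩, -⟩ := hD
  rw [hDc] at hx ⊢
  exact IsConj.trans (show IsConj d₀ x from hx) (isConj_iff.2 ⟨g, rfl⟩)

theorem tt_class_isConj {D : Set G} (hD : IsThreeTranspositionClass D) {x y : G} (hx : x ∈ D)
    (hy : y ∈ D) : ∃ g : G, g * x * g⁻¹ = y := by
  obtain ⟨-, ⟨d₀, -, hDc⟩, -⟩ := hD
  rw [hDc] at hx hy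
  exact isConj_iff.1 ((show IsConj d₀ x from hx).symm.trans (show IsConj d₀ y from hy))

/-- In a class of 3-transpositions with at least two members every member fails to commute with some member. -/
theorem tt_class_exists_not_commute {D : Set G} (hD : IsThreeTranspositionClass D)
    (hD2 : ∃ a ∈ D, ∃ b ∈ D, a ≠ b) {d : G} (hd : d ∈ D) : ∃ e ∈ D, ¬ Commute d e := by
  by_contra hcon
  push Not at hcon
  have hcen : d ∈ Subgroup.centralizer (D : Set G) := by
    rw [Subgroup.mem_centralizer_iff]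
    intro e he
    exact (hcon e he).eq.symm
  have hcen' : ∀ g : G, g * d = d * g := by
    intro g
    have h1 : D ⊆ Subgroup.centralizer ({d} : Set G) := by
      intro e he
      rw [SetLike.mem_coe, Subgroup.mem_centralizer_singleton_iff]
      exact (hcon e he).eq.symm
    have h2 : Subgroup.closure D ≤ Subgroup.centralizer ({d} : Set G) := (Subgroup.closure_le _).2 h1
    rw [hD.2.2] at h2
    have := h2 (Subgroup.mem_top g)
    rw [Subgroup.mem_centralizer_singleton_iff] at this
    exact this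
  obtain ⟨a, ha, b, hb, hab⟩ := hD2
  obtain ⟨g, hg⟩ := tt_class_isConj hD hd ha
  obtain ⟨k, hk⟩ := tt_class_isConj hD hd hb
  apply hab
  rw [← hg, ← hk, hcen' g, hcen' k]
  group

/-- `x` and `y` have the same commuting relation with `D`. -/
def VEq (D : Set G) (x y : G) : Prop := ∀ e ∈ D, Commute x e ↔ Commute y e

theorem VEq.conj {D : Set G} (hconj : ∀ g : G, ∀ x ∈ D, g * x * g⁻¹ ∈ D) {x y : G} (h : VEq D x y)
    (g : G) : VEq D (g * x * g⁻¹) (g * y * g⁻¹) := by
  intro e he
  have he' : g⁻¹ * e * g ∈ D := by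
    have := hconj g⁻¹ e he
    rwa [inv_inv] at this
  have key : ∀ t : G, Commute (g * t * g⁻¹) e ↔ Commute t (g⁻¹ * e * g) := by
    intro t
    have e1 : e = g * (g⁻¹ * e * g) * g⁻¹ := by group
    conv_lhs => rw [e1]
    exact Commute.conj_iff g
  rw [key, key]
  exact h _ he'

theorem VEq.trans {D : Set G} {x y z : G} (h : VEq D x y) (h' : VEq D y z) : VEq D x z :=
  fun e he => (h e he).trans (h' e he)

theorem VEq.symm {D : Set G} {x y : G} (h : VEq D x y) : VEq D y x := fun e he => (h e he).symm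

theorem VEq.commute {D : Set G} {x y d : G} (hy : y ∈ D) (hd : d ∈ D) (h : VEq D x d)
    (h' : VEq D y d) : Commute x y :=
  (h y hy).2 ((h' d hd).2 (Commute.refl d)).symm

/-- The product `d' v'` of two `V`-equivalent transpositions permutes every `V`-class. -/
theorem VEq.conj_prod {D : Set G} (hD : IsThreeTranspositionSet D)
    (hconj : ∀ g : G, ∀ x ∈ D, g * x * g⁻¹ ∈ D) {d d' v' x : G} (hd : d ∈ D) (hd' : d' ∈ D)
    (hv' : v' ∈ D) (hx : x ∈ D) (h' : VEq D v' d') (h : VEq D x d) :
    VEq D ((d' * v') * x * (d' * v')⁻¹) d := by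
  by_cases hc : Commute d' d
  · have h1 : Commute x d' := (h d' hd').2 hc.symm
    have h2 : Commute v' x := (h' x hx).2 h1.symm
    have : (d' * v') * x * (d' * v')⁻¹ = x := by
      rw [mul_inv_rev]
      calc d' * v' * x * (v'⁻¹ * d'⁻¹) = d' * (v' * x) * v'⁻¹ * d'⁻¹ := by group
        _ = d' * (x * v') * v'⁻¹ * d'⁻¹ := by rw [h2.eq]
        _ = (d' * x) * d'⁻¹ := by group
        _ = (x * d') * d'⁻¹ := by rw [h1.eq]
        _ = x := by group
    rw [this]
    exact h
  · have hc' : ¬ Commute v' d := fun hh => hc ((h' d hd).1 hh)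
    have b1 : v' * d * v' = d * v' * d := (tt_commute_or_braid hD hv' hd).resolve_left hc'
    have b2 : d' * d * d' = d * d' * d := (tt_commute_or_braid hD hd' hd).resolve_left hc
    have e1 : VEq D (v' * x * v'⁻¹) (v' * d * v'⁻¹) := h.conj hconj v'
    have e2 : VEq D (d * v' * d⁻¹) (d * d' * d⁻¹) := h'.conj hconj d
    rw [tt_inv hD hd, ← b1, ← b2] at e2
    rw [tt_inv hD hv'] at e1
    have e3 := (e1.trans e2).conj hconj d'
    have e4 : d' * (d' * d * d') * d'⁻¹ = d := by
      calc d' * (d' * d * d') * d'⁻¹ = (d' * d') * d * (d' * d'⁻¹) := by group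
        _ = d := by rw [tt_sq hD hd']; group
    rw [e4] at e3
    have e5 : (d' * v') * x * (d' * v')⁻¹ = d' * (v' * x * v') * d'⁻¹ := by
      rw [mul_inv_rev, tt_inv hD hv']; group
    rw [e5]
    exact e3

end Cfsg.Agent.Lib.Helper27
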