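import Cfsg.Agent.Lib.Helper27.ThreeTrans
import Cfsg.Agent.S5344

set_option autoImplicit false

namespace Cfsg.Agent.Lib.Helper27.TT9

open Cfsg Cfsg.Agent.Lib.Helper27

variable {G : Type*} [Group G]

/-- `x'` is a member of `D` other than `x` commuting with `x` -/
def IsPartner (D : Set G) (x x' : G) : Prop := x' ∈ D ∧ x' ≠ x ∧ Commute x x'

/-- every member of `D` commutes with exactly one other member -/
def Matched (D : Set G) : Prop :=
  ∀ x ∈ D, ∃ x', IsPartner D x x' ∧ ∀ y ∈ D, Commute x y → y = x ∨ y = x'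

theorem IsPartner.unique {D : Set G} (hM : Matched D) {x a b : G} (hx : x ∈ D)
    (ha : IsPartner D x a) (hb : IsPartner D x b) : a = b := by
  obtain ⟨x', -, h⟩ := hM x hx
  rw [(h a ha.1 ha.2.2).resolve_left ha.2.1, (h b hb.1 hb.2.2).resolve_left hb.2.1]

theorem IsPartner.eq_or {D : Set G} (hM : Matched D) {x a y : G} (hx : x ∈ D)
    (ha : IsPartner D x a) (hy : y ∈ D) (hc : Commute x y) : y = x ∨ y = a := by
  by_cases h : y = x
  · exact Or.inl h
  · exact Or.inr (IsPartner.unique hM hx ⟨hy, h, hc⟩ ha)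

theorem IsPartner.symm {D : Set G} {x a : G} (hx : x ∈ D) (ha : IsPartner D x a) :
    IsPartner D a x := ⟨hx, ha.2.1.symm, ha.2.2.symm⟩

theorem IsPartner.conj {D : Set G} (hD : IsThreeTranspositionClass D) {x a : G}
    (ha : IsPartner D x a) (g : G) : IsPartner D (g * x * g⁻¹) (g * a * g⁻¹) := by
  refine ⟨tt_class_conj_mem hD g ha.1, fun h => ha.2.1 ?_, ?_⟩
  · exact mul_left_cancel (mul_right_cancel h)
  · show g * x * g⁻¹ * (g * a * g⁻¹) = g * a * g⁻¹ * (g * x * g⁻¹)
    calc g * x * g⁻¹ * (g * a * g⁻¹) = g * (x * a) * g⁻¹ := by group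
      _ = g * (a * x) * g⁻¹ := by rw [ha.2.2.eq]
      _ = g * a * g⁻¹ * (g * x * g⁻¹) := by group

theorem matched_of {D : Set G} (hD : IsThreeTranspositionClass D) {d : G} (hd : d ∈ D)
    (hm : {y : G | y ∈ D ∧ Commute d y}.ncard = 2) : Matched D := by
  obtain ⟨u, v, huv, hs⟩ := Set.ncard_eq_two.1 hm
  have hdm : d ∈ ({u, v} : Set G) := by rw [← hs]; exact ⟨hd, Commute.refl d⟩
  obtain ⟨d', hd', hall⟩ : ∃ d', IsPartner D d d' ∧ ∀ y ∈ D, Commute d y → y = d ∨ y = d' := by
    have hu : u ∈ {y : G | y ∈ D ∧ Commute d y} := by rw [hs]; simp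
    have hv : v ∈ {y : G | y ∈ D ∧ Commute d y} := by rw [hs]; simp
    rcases hdm with rfl | hdv
    · refine ⟨v, ⟨hv.1, huv.symm, hv.2⟩, fun y hy hc => ?_⟩
      have : y ∈ ({d, v} : Set G) := by rw [← hs]; exact ⟨hy, hc⟩
      simpa using this
    · have hdv' : d = v := hdv
      subst hdv'
      refine ⟨u, ⟨hu.1, huv, hu.2⟩, fun y hy hc => ?_⟩
      have : y ∈ ({u, d} : Set G) := by rw [← hs]; exact ⟨hy, hc⟩
      rcases this with h | h
      · exact Or.inr h
      · exact Or.inl h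
  intro x hx
  obtain ⟨g, rfl⟩ := tt_class_isConj hD hd hx
  refine ⟨g * d' * g⁻¹, hd'.conj hD g, fun y hy hc => ?_⟩
  have hy' : g⁻¹ * y * g ∈ D := by
    have := tt_class_conj_mem hD g⁻¹ hy
    rwa [inv_inv] at this
  have hc' : Commute d (g⁻¹ * y * g) := by
    show d * (g⁻¹ * y * g) = g⁻¹ * y * g * d
    have h := hc.eq
    calc d * (g⁻¹ * y * g) = g⁻¹ * ((g * d * g⁻¹) * y) * g := by group
      _ = g⁻¹ * (y * (g * d * g⁻¹)) * g := by rw [h]
      _ = g⁻¹ * y * g * d := by group
  rcases hall _ hy' hc' with h | h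
  · left
    rw [← h]; group
  · right
    rw [← h]; group

/-- the `Sym 4` generated by a non-commuting pair and a partner -/
theorem exists_sym4 {D : Set G} (hD : IsThreeTranspositionClass D) (hM : Matched D) {u u' v v' : G}
    (hu : u ∈ D) (hv : v ∈ D) (hu' : IsPartner D u u') (hv' : IsPartner D v v')
    (huv : ¬ Commute u v) :
    ∃ φ : Equiv.Perm (Fin 4) →* G, Function.Injective φ ∧ φ (Equiv.swap 0 1) = u ∧
      φ (Equiv.swap 1 2) = v ∧ φ (Equiv.swap 2 3) = u' ∧ φ (Equiv.swap 0 3) = v' := by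
  have hvu' : ¬ Commute v u' := by
    intro hc
    rcases (hu'.symm hu).eq_or hM hu'.1 hv hc.symm with h | h
    · rw [h] at huv; exact huv hu'.2.2
    · rw [h] at huv; exact huv (Commute.refl u)
  obtain ⟨φ, hinj, h1, h2, h3⟩ := Cfsg.Agent.S5344.result hD.1 hu hv hu'.1 hu'.2.1.symm hu'.2.2 huv hvu'
  refine ⟨φ, hinj, h1, h2, h3, ?_⟩
  refine IsPartner.unique hM hv ⟨?_, ?_, ?_⟩ hv'
  · have e : (Equiv.swap 0 3 : Equiv.Perm (Fin 4)) =
        (Equiv.swap 1 3) * (Equiv.swap 0 1) * (Equiv.swap 1 3)⁻¹ := by decide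
    rw [e, map_mul, map_mul, map_inv, h1]
    exact tt_class_conj_mem hD _ hu
  · rw [← h2]
    intro h
    have := hinj h
    revert this
    decide
  · rw [← h2]
    show φ _ * φ _ = φ _ * φ _
    rw [← map_mul, ← map_mul]
    congr 1
    decide

theorem conj_t {D : Set G} (hD : IsThreeTranspositionClass D) (hM : Matched D) {u u' v v' : G}
    (hu : u ∈ D) (hv : v ∈ D) (hu' : IsPartner D u u') (hv' : IsPartner D v v')
    (huv : ¬ Commute u v) : u * (v * v') * u⁻¹ = (u * u') * (v * v') := by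
  obtain ⟨φ, -, h1, h2, h3, h4⟩ := exists_sym4 hD hM hu hv hu' hv' huv
  rw [← h1, ← h2, ← h3, ← h4]
  simp only [← map_mul, ← map_inv]
  congr 1
  decide

theorem comm_t {D : Set G} (hD : IsThreeTranspositionClass D) (hM : Matched D) {u u' v v' : G}
    (hu : u ∈ D) (hv : v ∈ D) (hu' : IsPartner D u u') (hv' : IsPartner D v v')
    (huv : ¬ Commute u v) : (u * u') * (v * v') = (v * v') * (u * u') := by
  obtain ⟨φ, -, h1, h2, h3, h4⟩ := exists_sym4 hD hM hu hv hu' hv' huv
  rw [← h1, ← h2, ← h3, ← h4]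
  simp only [← map_mul]
  congr 1
  decide

theorem main {D : Set G} (hD : IsThreeTranspositionClass D) (hD2 : ∃ a ∈ D, ∃ b ∈ D, a ≠ b)
    (hM : Matched D) : Nonempty (G ≃* Equiv.Perm (Fin 4)) := by
  obtain ⟨d, hd⟩ : ∃ d, d ∈ D := by
    obtain ⟨d, hd, -⟩ := hD2
    exact ⟨d, hd⟩
  obtain ⟨e, he, hde⟩ := tt_class_exists_not_commute hD hD2 hd
  obtain ⟨d', hd', -⟩ := hM d hd
  obtain ⟨e', he', -⟩ := hM e he
  obtain ⟨φ, hinj, h1, h2, h3, h4⟩ := exists_sym4 hD hM hd he hd' he' hde
  have hdr : d ∈ φ.range := ⟨_, h1⟩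
  have her : e ∈ φ.range := ⟨_, h2⟩
  have hdr' : d' ∈ φ.range := ⟨_, h3⟩
  have her' : e' ∈ φ.range := ⟨_, h4⟩
  have hsub : ∀ f ∈ D, f ∈ φ.range := by
    intro f hf
    by_cases c1 : Commute d f
    · rcases hd'.eq_or hM hd hf c1 with h | h <;> rw [h] <;> assumption
    by_cases c2 : Commute e f
    · rcases he'.eq_or hM he hf c2 with h | h <;> rw [h] <;> assumption
    obtain ⟨f', hf', -⟩ := hM f hf
    have c2' : ¬ Commute f e := fun h => c2 h.symm
    have hg : f * e * f⁻¹ ∈ D := tt_class_conj_mem hD f he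
    have hg' : IsPartner D (f * e * f⁻¹) (f * e' * f⁻¹) := he'.conj hD f
    have tg : (f * e * f⁻¹) * (f * e' * f⁻¹) = (f * f') * (e * e') := by
      rw [← conj_t hD hM hf he hf' he' c2']; group
    have hcomm : Commute d (f * e * f⁻¹) := by
      by_contra hnc
      have k1 := conj_t hD hM hd hg hd' hg' hnc
      rw [tg] at k1
      have k2 := conj_t hD hM hd hf hd' hf' c1
      have k3 := conj_t hD hM hd he hd' he' hde
      have k4 := comm_t hD hM hd hf hd' hf' c1
      have k5 : (d * d') * (d * d') = 1 := by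
        calc (d * d') * (d * d') = d * (d' * d) * d' := by group
          _ = d * (d * d') * d' := by rw [hd'.2.2.eq]
          _ = (d * d) * (d' * d') := by group
          _ = 1 := by rw [tt_sq hD.1 hd, tt_sq hD.1 hd'.1, one_mul]
      have k6 : d * ((f * f') * (e * e')) * d⁻¹ = (f * f') * (e * e') := by
        calc d * ((f * f') * (e * e')) * d⁻¹ = (d * (f * f') * d⁻¹) * (d * (e * e') * d⁻¹) := by group
          _ = ((d * d') * (f * f')) * ((d * d') * (e * e')) := by rw [k2, k3]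
          _ = ((f * f') * (d * d')) * ((d * d') * (e * e')) := by rw [k4]
          _ = (f * f') * ((d * d') * (d * d')) * (e * e') := by group
          _ = (f * f') * (e * e') := by rw [k5, mul_one]
      rw [k6] at k1
      have k7 : d * d' = 1 := by
        have := mul_right_cancel (a := 1) (b := (f * f') * (e * e')) (c := d * d')
          (by rw [one_mul]; exact k1)
        exact this.symm
      have k8 : d' = d := by
        have := eq_inv_of_mul_eq_one_right k7
        rw [this, tt_inv hD.1 hd]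
      exact hd'.2.1 k8
    have hbraid : f * e * f = e * f * e := (tt_commute_or_braid hD.1 hf he).resolve_left c2'
    have hfe : f * e * f⁻¹ = e * f * e := by rw [tt_inv hD.1 hf]; exact hbraid
    have he2 := tt_sq hD.1 he
    have hf_eq : f = e * (f * e * f⁻¹) * e := by
      rw [hfe]
      calc f = (e * e) * f * (e * e) := by rw [he2, one_mul, mul_one]
        _ = e * (e * f * e) * e := by group
    rw [hf_eq]
    rcases hd'.eq_or hM hd hg hcomm with h | h <;> rw [h]
    · exact mul_mem (mul_mem her hdr) her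
    · exact mul_mem (mul_mem her hdr') her
  have hsurj : Function.Surjective φ := by
    rw [← MonoidHom.range_eq_top, eq_top_iff, ← hD.2.2, Subgroup.closure_le]
    exact hsub
  exact ⟨(MulEquiv.ofBijective φ ⟨hinj, hsurj⟩).symm⟩

end Cfsg.Agent.Lib.Helper27.TT9
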